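import Mathlib
import Cfsg.Agent.L.SylowIn

/-! Monomial-affine permutations of `(I × ZMod p) ⊕ J` and Sylow subgroups of symmetric groups. -/

set_option autoImplicit false
set_option linter.unusedSectionVars false

namespace Cfsg.Agent.H3.Alt

open Equiv Subgroup Cfsg.Agent.L

theorem zmod_two_cases : ∀ x : ZMod 2, x = 0 ∨ x = 1 := by decide

theorem zmod_two_one_add_one : (1 : ZMod 2) + 1 = 0 := by decide

variable {p : ℕ} [hp : Fact p.Prime] {I J : Type}

/-- The points: `p` points over each block of `I`, and the extra points `J`. -/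
abbrev Pt (p : ℕ) (I J : Type) : Type := (I × ZMod p) ⊕ J

/-- `(i, x) ↦ (σ i, l i * x + a i)`, fixing `J`. -/
def wr (J : Type) (σ : Perm I) (l : I → (ZMod p)ˣ) (a : I → ZMod p) : Perm (Pt p I J) :=
  Equiv.sumCongr (Equiv.prodShear σ fun i => (l i).mulLeft.trans (Equiv.addRight (a i)))
    (Equiv.refl J)

@[simp] theorem wr_inl (σ : Perm I) (l : I → (ZMod p)ˣ) (a : I → ZMod p) (i : I) (x : ZMod p) :
    wr J σ l a (Sum.inl (i, x)) = Sum.inl (σ i, l i * x + a i) := rfl

@[simp] theorem wr_inr (σ : Perm I) (l : I → (ZMod p)ˣ) (a : I → ZMod p) (j : J) :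
    wr J σ l a (Sum.inr j) = Sum.inr j := rfl

theorem pt_ext {g h : Perm (Pt p I J)} (h1 : ∀ i x, g (Sum.inl (i, x)) = h (Sum.inl (i, x)))
    (h2 : ∀ j, g (Sum.inr j) = h (Sum.inr j)) : g = h := by
  ext z
  rcases z with ⟨i, x⟩ | j
  · exact h1 i x
  · exact h2 j

theorem wr_mul (σ τ : Perm I) (l m : I → (ZMod p)ˣ) (a b : I → ZMod p) :
    wr J σ l a * wr J τ m b =
      wr J (σ * τ) (fun i => l (τ i) * m i) (fun i => l (τ i) * b i + a (τ i)) := by
  refine pt_ext (fun i x => ?_) fun j => rfl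
  simp only [Perm.mul_apply, wr_inl, Units.val_mul]
  congr 2
  ring

theorem wr_one : wr J (1 : Perm I) (1 : I → (ZMod p)ˣ) 0 = 1 :=
  pt_ext (fun i x => by simp) fun j => rfl

theorem wr_eq_iff {σ τ : Perm I} {l m : I → (ZMod p)ˣ} {a b : I → ZMod p} :
    wr J σ l a = wr J τ m b ↔ σ = τ ∧ l = m ∧ a = b := by
  constructor
  · intro h
    have h0 : ∀ i x, (σ i, (l i : ZMod p) * x + a i) = (τ i, (m i : ZMod p) * x + b i) := fun i x =>
      Sum.inl_injective (congrArg (fun g : Perm (Pt p I J) => g (Sum.inl (i, x))) h)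
    have ha : a = b := funext fun i => by simpa using (Prod.ext_iff.1 (h0 i 0)).2
    refine ⟨Equiv.ext fun i => (Prod.ext_iff.1 (h0 i 0)).1, funext fun i => Units.ext ?_, ha⟩
    have := (Prod.ext_iff.1 (h0 i 1)).2
    simpa [ha] using this
  · rintro ⟨rfl, rfl, rfl⟩; rfl

theorem wr_congr {σ τ : Perm I} {l m : I → (ZMod p)ˣ} {a b : I → ZMod p} (h1 : σ = τ)
    (h2 : ∀ i, l i = m i) (h3 : ∀ i, a i = b i) : wr J σ l a = wr J τ m b :=
  wr_eq_iff.2 ⟨h1, funext h2, funext h3⟩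

theorem wr_inv (σ : Perm I) (l : I → (ZMod p)ˣ) (a : I → ZMod p) :
    (wr J σ l a)⁻¹ = wr J σ⁻¹ (fun i => (l (σ⁻¹ i))⁻¹)
      (fun i => -(((l (σ⁻¹ i))⁻¹ : (ZMod p)ˣ) * a (σ⁻¹ i))) := by
  rw [inv_eq_iff_mul_eq_one, wr_mul, ← wr_one]
  refine wr_congr (mul_inv_cancel σ) (fun i => by simp) fun i => ?_
  rw [mul_neg, Units.mul_inv_cancel_left, neg_add_cancel]; rfl

theorem wr_mul' (σ τ : Perm I) (a b : I → ZMod p) :
    wr J σ 1 a * wr J τ 1 b = wr J (σ * τ) 1 (fun i => b i + a (τ i)) := by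
  rw [wr_mul]; exact wr_congr rfl (fun i => by simp) fun i => by simp

theorem tr_mul (a b : I → ZMod p) : wr J 1 1 a * wr J 1 1 b = wr J 1 1 (a + b) := by
  rw [wr_mul']; exact wr_congr rfl (fun i => rfl) fun i => by simp [add_comm]

theorem tr_pow (a : I → ZMod p) (n : ℕ) : wr J 1 1 a ^ n = wr J 1 1 (n • a) := by
  induction n with
  | zero => rw [pow_zero, zero_smul, wr_one]
  | succ n ih => rw [pow_succ, ih, tr_mul, succ_nsmul]

theorem tr_pow_p (a : I → ZMod p) : wr J 1 1 a ^ p = 1 := by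
  rw [tr_pow, ← wr_one]
  exact wr_congr rfl (fun i => rfl) fun i => by simp

theorem tr_inv (a : I → ZMod p) : (wr J 1 1 a)⁻¹ = wr J 1 1 (-a) := by
  rw [inv_eq_iff_mul_eq_one, tr_mul, add_neg_cancel, wr_one]

/-- The top permutations as a homomorphism. -/
def topH (p : ℕ) [Fact p.Prime] (J : Type) : Perm I →* Perm (Pt p I J) where
  toFun σ := wr J σ 1 0
  map_one' := wr_one
  map_mul' σ τ := by rw [wr_mul']; exact wr_congr rfl (fun i => rfl) fun i => by simp

theorem topH_apply (σ : Perm I) : topH p J σ = wr J σ 1 0 := rfl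

/-- The diagonal multiplications as a homomorphism. -/
def mlH (J : Type) : (I → (ZMod p)ˣ) →* Perm (Pt p I J) where
  toFun l := wr J 1 l 0
  map_one' := wr_one
  map_mul' l m := by rw [wr_mul]; exact wr_congr rfl (fun i => rfl) fun i => by simp

theorem mlH_apply (l : I → (ZMod p)ˣ) : mlH J l = wr J 1 l 0 := rfl

theorem wr_eq_top_mul_tr (σ : Perm I) (a : I → ZMod p) :
    wr J σ 1 a = topH p J σ * wr J 1 1 a := by
  rw [topH_apply, wr_mul']; exact wr_congr (mul_one σ).symm (fun i => rfl) fun i => by simp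

theorem wr_eq_mul (σ : Perm I) (l : I → (ZMod p)ˣ) (a : I → ZMod p) :
    wr J σ l a = topH p J σ * (wr J 1 1 a * mlH J l) := by
  rw [topH_apply, mlH_apply, wr_mul, wr_mul]
  exact wr_congr (by simp) (fun i => by simp) fun i => by simp

/-- All monomial-affine permutations. -/
def Wr (p : ℕ) [Fact p.Prime] (I J : Type) : Subgroup (Perm (Pt p I J)) where
  carrier := {g | ∃ σ l a, g = wr J σ l a}
  one_mem' := ⟨1, 1, 0, wr_one.symm⟩
  mul_mem' := by
    rintro _ _ ⟨σ, l, a, rfl⟩ ⟨τ, m, b, rfl⟩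
    exact ⟨_, _, _, wr_mul ..⟩
  inv_mem' := by
    rintro _ ⟨σ, l, a, rfl⟩
    exact ⟨_, _, _, wr_inv ..⟩

theorem wr_mem_Wr (σ : Perm I) (l : I → (ZMod p)ˣ) (a : I → ZMod p) : wr J σ l a ∈ Wr p I J :=
  ⟨σ, l, a, rfl⟩

/-- The wreath product of `ZMod p` by `P`. -/
def Sw (p : ℕ) [Fact p.Prime] (J : Type) (P : Subgroup (Perm I)) : Subgroup (Perm (Pt p I J)) where
  carrier := {g | ∃ σ ∈ P, ∃ a, g = wr J σ 1 a}
  one_mem' := ⟨1, P.one_mem, 0, wr_one.symm⟩
  mul_mem' := by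
    rintro _ _ ⟨σ, hσ, a, rfl⟩ ⟨τ, hτ, b, rfl⟩
    exact ⟨_, P.mul_mem hσ hτ, _, wr_mul' ..⟩
  inv_mem' := by
    rintro _ ⟨σ, hσ, a, rfl⟩
    refine ⟨_, P.inv_mem hσ, _, (wr_inv ..).trans (wr_congr rfl (fun i => ?_) fun i => rfl)⟩
    simp

theorem wr_mem_Sw {P : Subgroup (Perm I)} {σ : Perm I} (hσ : σ ∈ P) (a : I → ZMod p) :
    wr J σ 1 a ∈ Sw p J P := ⟨σ, hσ, a, rfl⟩

theorem tr_mem_Sw (P : Subgroup (Perm I)) (a : I → ZMod p) : wr J 1 1 a ∈ Sw p J P :=
  wr_mem_Sw P.one_mem a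

theorem Sw_mono {P Q : Subgroup (Perm I)} (h : P ≤ Q) : Sw p J P ≤ Sw p J Q := by
  rintro _ ⟨σ, hσ, a, rfl⟩
  exact wr_mem_Sw (h hσ) a

theorem mem_Sw_bot {g : Perm (Pt p I J)} : g ∈ Sw p J (⊥ : Subgroup (Perm I)) ↔ ∃ a, g = wr J 1 1 a := by
  constructor
  · rintro ⟨σ, hσ, a, rfl⟩
    exact ⟨a, by rw [mem_bot.1 hσ]⟩
  · rintro ⟨a, rfl⟩; exact tr_mem_Sw _ a

theorem conj_tr (σ : Perm I) (l : I → (ZMod p)ˣ) (a b : I → ZMod p) :
    wr J σ l a * wr J 1 1 b * (wr J σ l a)⁻¹ = wr J 1 1 (fun i => (l (σ⁻¹ i) : ZMod p) * b (σ⁻¹ i)) := by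
  rw [mul_inv_eq_iff_eq_mul, wr_mul, wr_mul]
  exact wr_congr (by simp) (fun i => by simp) fun i => by simp [add_comm]

variable [Fintype I] [DecidableEq I] [Fintype J] [DecidableEq J]

theorem card_Sw (P : Subgroup (Perm I)) :
    Nat.card (Sw p J P) = Nat.card P * p ^ Fintype.card I := by
  have : Nat.card (P × (I → ZMod p)) = Nat.card (Sw p J P) := by
    refine Nat.card_eq_of_bijective (fun x => ⟨wr J x.1 1 x.2, wr_mem_Sw x.1.2 _⟩) ⟨?_, ?_⟩
    · rintro ⟨σ, a⟩ ⟨τ, b⟩ h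
      have := wr_eq_iff.1 (congrArg Subtype.val h)
      exact Prod.ext (Subtype.ext this.1) this.2.2
    · rintro ⟨_, σ, hσ, a, rfl⟩
      exact ⟨(⟨σ, hσ⟩, a), rfl⟩
  rw [← this, Nat.card_prod, Nat.card_fun, Nat.card_zmod, Nat.card_eq_fintype_card (α := I)]

theorem card_Pt : Fintype.card (Pt p I J) = p * Fintype.card I + Fintype.card J := by
  simp [Fintype.card_sum, Fintype.card_prod, ZMod.card, mul_comm]

theorem isSylowIn_Sw (hJ : Fintype.card J < p) {P : Subgroup (Perm I)} (hP : IsSylowIn p P ⊤) :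
    IsSylowIn p (Sw p J P) ⊤ := by
  refine isSylowIn_of_card_eq le_top ?_
  rw [card_Sw, hP.card_eq, card_top, card_top, Nat.card_perm, Nat.card_perm,
    Nat.card_eq_fintype_card, Nat.card_eq_fintype_card, card_Pt, Nat.factorization_def _ hp.out,
    Nat.factorization_def _ hp.out, padicValNat_factorial_mul_add _ hJ, padicValNat_factorial_mul,
    pow_add]

/-- `P` is generated by its elements of order dividing `p`. -/
def GenP (p : ℕ) {G : Type*} [Group G] (P : Subgroup G) : Prop :=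
  ∀ K : Subgroup G, (∀ g ∈ P, g ^ p = 1 → g ∈ K) → P ≤ K

omit hp in
theorem GenP.map {G G' : Type*} [Group G] [Group G'] {P : Subgroup G} (h : GenP p P)
    (f : G →* G') : GenP p (P.map f) := fun K hK =>
  map_le_iff_le_comap.2 (h _ fun g hg hgp => hK _ (mem_map_of_mem f hg) (by
    rw [← map_pow, hgp, map_one]))

theorem genP_Sw {P : Subgroup (Perm I)} (h : GenP p P) : GenP p (Sw p J P) := by
  rintro K hK _ ⟨σ, hσ, a, rfl⟩
  rw [wr_eq_top_mul_tr]
  refine K.mul_mem (h (K.comap (topH p J)) (fun τ hτ hτp => hK _ (wr_mem_Sw hτ 0) ?_) hσ)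
    (hK _ (tr_mem_Sw P a) (tr_pow_p a))
  show topH p J τ ^ p = 1
  rw [← map_pow, hτp, map_one]

/-- Splitting a finite type into blocks of size `p` and a remainder. -/
theorem nonempty_equiv_Pt {Ω : Type} [Fintype Ω]
    (h : Fintype.card Ω = p * Fintype.card I + Fintype.card J) : Nonempty (Pt p I J ≃ Ω) :=
  Fintype.card_eq.1 (by rw [card_Pt, h])

theorem genP_sylow (n : ℕ) : ∀ (Ω : Type) [Fintype Ω] [DecidableEq Ω], Fintype.card Ω = n →
    ∀ P : Subgroup (Perm Ω), IsSylowIn p P ⊤ → GenP p P := by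
  induction n using Nat.strong_induction_on with | _ n ih =>
  intro Ω _ _ hn P hP
  rcases Nat.eq_zero_or_pos n with rfl | hpos
  · haveI := Fintype.card_eq_zero_iff.1 hn
    intro K _ g _
    rw [Subsingleton.elim g 1]; exact K.one_mem
  obtain ⟨Q, hQ⟩ := exists_isSylowIn p (⊤ : Subgroup (Perm (Fin (n / p))))
  have h1 := ih (n / p) (Nat.div_lt_self hpos hp.out.one_lt) (Fin (n / p)) (Fintype.card_fin _) Q hQ
  obtain ⟨e⟩ := nonempty_equiv_Pt (p := p) (I := Fin (n / p)) (J := Fin (n % p)) (Ω := Ω)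
    (by rw [hn, Fintype.card_fin, Fintype.card_fin, Nat.div_add_mod])
  have h2 := (isSylowIn_Sw (J := Fin (n % p))
    (by rw [Fintype.card_fin]; exact Nat.mod_lt _ hp.out.pos) hQ).map e.permCongrHom.toMonoidHom
  rw [map_top_of_surjective _ e.permCongrHom.surjective] at h2
  obtain ⟨g, -, hg⟩ := hP.exists_conj_eq h2
  rw [← hg]
  exact ((genP_Sw h1).map _).map _

/-! ### Signs and supports -/

theorem sign_eq_one_of_pow {Ω : Type*} [Fintype Ω] [DecidableEq Ω] (hp2 : p ≠ 2) {g : Perm Ω}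
    {k : ℕ} (h : g ^ p ^ k = 1) : Perm.sign g = 1 := by
  have h1 : Perm.sign g ^ p ^ k = 1 := by rw [← map_pow, h, map_one]
  rcases Int.units_eq_one_or (Perm.sign g) with h2 | h2
  · exact h2
  · rw [h2, ((hp.out.odd_of_ne_two hp2).pow).neg_one_pow] at h1
    exact absurd h1 (by decide)

theorem sign_top (σ : Perm I) : Perm.sign (topH p J σ) = Perm.sign σ ^ p := by
  have : topH p J σ = Perm.sumCongr (Equiv.prodCongrLeft fun _ : ZMod p => σ) (1 : Perm J) :=
    pt_ext (fun i x => by simp [topH_apply]) fun j => rfl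
  rw [this, Perm.sign_sumCongr, Perm.sign_prodCongrLeft]
  simp [ZMod.card]

theorem sign_tr (a : I → ZMod p) :
    Perm.sign (wr J 1 1 a) = ∏ i, Perm.sign (Equiv.addRight (a i) : Perm (ZMod p)) := by
  have : wr J 1 1 a = Perm.sumCongr (Equiv.prodCongrRight fun i => (Equiv.addRight (a i)))
      (1 : Perm J) := pt_ext (fun i x => by simp) fun j => rfl
  rw [this, Perm.sign_sumCongr, Perm.sign_prodCongrRight]
  simp

theorem sign_tr_single (i : I) (c : ZMod p) :
    Perm.sign (wr J 1 1 (Pi.single i c)) = Perm.sign (Equiv.addRight c : Perm (ZMod p)) := by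
  rw [sign_tr, Finset.prod_eq_single i]
  · simp
  · intro k _ hk
    rw [Pi.single_eq_of_ne hk]
    simp
  · simp

/-- The vector `e_i + e_l`. -/
def pr (p : ℕ) (i l : I) : I → ZMod p := Pi.single i 1 + Pi.single l 1

theorem sign_tr_pair (i l : I) : Perm.sign (wr J 1 1 (pr p i l)) = 1 := by
  rw [pr, ← tr_mul, map_mul, sign_tr_single, sign_tr_single, Int.units_mul_self]

theorem sign_top_of_pow {σ : Perm I} {k : ℕ} (h : σ ^ p ^ k = 1) : Perm.sign (topH p J σ) = 1 := by
  by_cases hp2 : p = 2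
  · rw [sign_top, hp2, sq, Int.units_mul_self]
  · exact sign_eq_one_of_pow hp2 (k := k) (by rw [← map_pow, h, map_one])

theorem card_support_wr (σ : Perm I) (a : I → ZMod p) :
    (wr J σ 1 a).support.card = p * (Finset.univ.filter fun i => σ i ≠ i ∨ a i ≠ 0).card := by
  have : (wr J σ 1 a).support = ((Finset.univ.filter fun i => σ i ≠ i ∨ a i ≠ 0) ×ˢ
      (Finset.univ : Finset (ZMod p))).map Function.Embedding.inl := by
    ext z
    rcases z with ⟨i, x⟩ | j
    · simp [Perm.mem_support, ← not_and_or]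
    · simp [Perm.mem_support]
  rw [this, Finset.card_map, Finset.card_product, Finset.card_univ, ZMod.card, mul_comm]

theorem card_support_tr (a : I → ZMod p) :
    (wr J 1 1 a).support.card = p * (Finset.univ.filter fun i => a i ≠ 0).card := by
  rw [card_support_wr]; simp

/-- The indicator vector of a set of blocks. -/
def ind (p : ℕ) (M : Finset I) : I → ZMod p := fun i => if i ∈ M then 1 else 0

theorem card_support_ind (M : Finset I) : (wr J 1 1 (ind p M)).support.card = p * M.card := by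
  rw [card_support_tr]
  congr 2
  ext i
  by_cases h : i ∈ M <;> simp [ind, h]

omit [Fintype I] [DecidableEq I] [Fintype J] [DecidableEq J] in
theorem isConj_of_card_support {Ω : Type*} [Fintype Ω] [DecidableEq Ω] {y z : Perm Ω}
    (hy : y ^ p = 1) (hz : z ^ p = 1) (h : y.support.card = z.support.card) : IsConj y z := by
  rw [Perm.isConj_iff_cycleType_eq]
  have h1 := Perm.cycleType_of_pow_prime_eq_one hy
  have h2 := Perm.cycleType_of_pow_prime_eq_one hz
  rw [← Perm.sum_cycleType, ← Perm.sum_cycleType, h1, h2, Multiset.sum_replicate,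
    Multiset.sum_replicate, smul_eq_mul, smul_eq_mul] at h
  rw [h1, h2, Nat.eq_of_mul_eq_mul_right hp.out.pos h]

theorem exists_ind (hJ : Fintype.card J < p) {y : Perm (Pt p I J)} (hy : y ^ p = 1) :
    ∃ M : Finset I, y.support.card = p * M.card := by
  have h1 := Perm.cycleType_of_pow_prime_eq_one hy
  have h2 := Perm.sum_cycleType y
  rw [h1, Multiset.sum_replicate, smul_eq_mul] at h2
  have h3 : y.support.card ≤ p * Fintype.card I + Fintype.card J := by
    rw [← card_Pt]; exact Finset.card_le_univ _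
  have h4 : y.cycleType.card ≤ (Finset.univ : Finset I).card := by
    rw [Finset.card_univ]
    by_contra h5
    have : (Fintype.card I + 1) * p ≤ y.cycleType.card * p := Nat.mul_le_mul_right _ (by omega)
    nlinarith
  obtain ⟨M, -, hM⟩ := Finset.exists_subset_card_eq h4
  exact ⟨M, by rw [hM, ← h2, mul_comm]⟩

theorem sign_addRight_two (h : p = 2) : Perm.sign (Equiv.addRight (1 : ZMod p) : Perm (ZMod p)) = -1 := by
  subst h
  have : (Equiv.addRight (1 : ZMod 2) : Perm (ZMod 2)) = swap 0 1 := by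
    ext x
    rcases zmod_two_cases x with rfl | rfl
    · simp
    · simp only [Equiv.coe_addRight, swap_apply_right]; exact zmod_two_one_add_one
  exact this ▸ Perm.sign_swap zero_ne_one

theorem exists_odd_commute (hI : 3 ≤ Fintype.card I) (M : Finset I) :
    ∃ o : Perm (Pt p I J), Perm.sign o = -1 ∧ o * wr J 1 1 (ind p M) * o⁻¹ = wr J 1 1 (ind p M) := by
  by_cases hp2 : p = 2
  · obtain ⟨i⟩ : Nonempty I := Fintype.card_pos_iff.1 (by omega)
    refine ⟨wr J 1 1 (Pi.single i 1), by rw [sign_tr_single, sign_addRight_two hp2], ?_⟩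
    rw [conj_tr]
    exact wr_congr rfl (fun _ => rfl) fun _ => by simp
  · obtain ⟨i, j, hij, hM⟩ : ∃ i j : I, i ≠ j ∧ (i ∈ M ↔ j ∈ M) := by
      obtain ⟨i, j, hij, h⟩ := Fintype.exists_ne_map_eq_of_card_lt (fun i : I => decide (i ∈ M))
        (by rw [Fintype.card_bool]; omega)
      exact ⟨i, j, hij, by simpa using h⟩
    refine ⟨topH p J (swap i j), ?_, ?_⟩
    · rw [sign_top, Perm.sign_swap hij, (hp.out.odd_of_ne_two hp2).neg_one_pow]
    · rw [topH_apply, conj_tr]
      refine wr_congr rfl (fun _ => rfl) fun k => ?_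
      rw [swap_inv, Pi.one_apply, Units.val_one, one_mul]
      have : swap i j k ∈ M ↔ k ∈ M := by
        rw [swap_apply_def]
        split_ifs <;> simp_all
      simp only [ind, this]

theorem exists_even_conj (hI : 3 ≤ Fintype.card I) (hJ : Fintype.card J < p)
    {y z : Perm (Pt p I J)} (hy : y ^ p = 1) (hz : z ^ p = 1)
    (h : y.support.card = z.support.card) : ∃ g, Perm.sign g = 1 ∧ g * y * g⁻¹ = z := by
  obtain ⟨M, hM⟩ := exists_ind hJ hy
  obtain ⟨o, ho, hou⟩ := exists_odd_commute (p := p) (J := J) hI M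
  have key : ∀ w : Perm (Pt p I J), w ^ p = 1 → w.support.card = p * M.card →
      ∃ g, Perm.sign g = 1 ∧ g * w * g⁻¹ = wr J 1 1 (ind p M) := by
    intro w hw hwM
    obtain ⟨g, hg⟩ := isConj_iff.1 (isConj_of_card_support hw (tr_pow_p (ind p M))
      (by rw [hwM, card_support_ind]))
    rcases Int.units_eq_one_or (Perm.sign g) with h2 | h2
    · exact ⟨g, h2, hg⟩
    · refine ⟨o * g, by rw [map_mul, ho, h2]; decide, ?_⟩
      rw [← hou, ← hg]; group
  obtain ⟨g, hg, e⟩ := key y hy hM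
  obtain ⟨k, hk, e'⟩ := key z hz (h ▸ hM)
  refine ⟨k⁻¹ * g, by rw [map_mul, map_inv, hg, hk]; simp, ?_⟩
  calc k⁻¹ * g * y * (k⁻¹ * g)⁻¹ = k⁻¹ * (g * y * g⁻¹) * k := by group
    _ = z := by rw [e, ← e']; group

end Cfsg.Agent.H3.Alt
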