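import Mathlib
import Cfsg.Agent.H3.AltWr
import Cfsg.Agent.H3.SimpleCrit

/-! Fusion in alternating groups: strongly closed subgroups and normalizers. -/

set_option autoImplicit false
set_option linter.unusedSectionVars false

namespace Cfsg.Agent.H3.Alt

open Equiv Subgroup Cfsg.Agent.L

theorem pinv_apply {α : Type*} (f : Perm α) (x : α) : f⁻¹ (f x) = x := f.symm_apply_apply x

theorem papply_inv {α : Type*} (f : Perm α) (x : α) : f (f⁻¹ x) = x := f.apply_symm_apply x

variable {p : ℕ} [hp : Fact p.Prime] {I J : Type}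
variable [Fintype I] [DecidableEq I] [Fintype J] [DecidableEq J]

/-- The translation vectors whose translation lies in `T`. -/
def trSub (T : Subgroup (Perm (Pt p I J))) : AddSubgroup (I → ZMod p) where
  carrier := {a | wr J 1 1 a ∈ T}
  zero_mem' := by show wr J 1 1 0 ∈ T; rw [wr_one]; exact T.one_mem
  add_mem' := by
    intro a b ha hb
    show wr J 1 1 (a + b) ∈ T
    rw [← tr_mul]; exact T.mul_mem ha hb
  neg_mem' := by
    intro a ha
    show wr J 1 1 (-a) ∈ T
    rw [← tr_inv]; exact T.inv_mem ha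

theorem mem_trSub {T : Subgroup (Perm (Pt p I J))} {a : I → ZMod p} :
    a ∈ trSub T ↔ wr J 1 1 a ∈ T := Iff.rfl

theorem card_support_single (i : I) {c : ZMod p} (hc : c ≠ 0) :
    (wr J 1 1 (Pi.single i c : I → ZMod p)).support.card = p * 1 := by
  rw [card_support_tr, ← Finset.card_singleton i]
  congr 2
  ext k
  by_cases h : k = i
  · subst h; simp [hc]
  · simp [h]

theorem pr_eq_ind {i l : I} (h : i ≠ l) : pr p i l = ind p {i, l} := by
  funext k
  by_cases h1 : k = i
  · subst h1; simp [pr, ind, h]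
  · by_cases h2 : k = l
    · subst h2; simp [pr, ind, h1]
    · simp [pr, ind, h1, h2]

theorem sc_alt (hI : 3 ≤ Fintype.card I) (hJ : Fintype.card J < p) {P : Subgroup (Perm I)}
    (hP : IsSylowIn p P ⊤) (h2 : p = 2 → ∃ i j, i ≠ j ∧ swap i j ∈ P)
    (T : Subgroup (Perm (Pt p I J))) (hT : T ≤ Sw p J P ⊓ alternatingGroup (Pt p I J))
    (hsc : ∀ x ∈ T, ∀ g ∈ alternatingGroup (Pt p I J),
      g * x * g⁻¹ ∈ Sw p J P ⊓ alternatingGroup (Pt p I J) → g * x * g⁻¹ ∈ T) :
    T = ⊥ ∨ T = Sw p J P ⊓ alternatingGroup (Pt p I J) := by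
  by_cases hT1 : T = ⊥
  · exact Or.inl hT1
  right
  have good : ∀ x ∈ T, x ^ p = 1 → ∀ y ∈ Sw p J P, y ^ p = 1 →
      x.support.card = y.support.card → y ∈ T := by
    intro x hx hxp y hy hyp h
    obtain ⟨g, hg, rfl⟩ := exists_even_conj hI hJ hxp hyp h
    exact hsc x hx g (Perm.mem_alternatingGroup.2 hg)
      ⟨hy, (alternatingGroup.normal).conj_mem _ (hT hx).2 g⟩
  have hTp : IsPGroup p T := (isSylowIn_Sw hJ hP).isPGroup.to_le (hT.trans inf_le_left)
  obtain ⟨x, hx, hx1, hxp⟩ : ∃ x ∈ T, x ≠ 1 ∧ x ^ p = 1 := by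
    haveI : Nontrivial T := (T.nontrivial_iff_ne_bot).2 hT1
    obtain ⟨n, hn, hc⟩ := hTp.nontrivial_iff_card.1 inferInstance
    obtain ⟨x, hx⟩ := exists_prime_orderOf_dvd_card' (G := T) p
      (by rw [hc]; exact dvd_pow_self p hn.ne')
    refine ⟨x, x.2, fun h => ?_, ?_⟩
    · have : x = 1 := Subtype.ext h
      rw [this, orderOf_one] at hx
      exact hp.out.one_lt.ne hx
    · have h0 := pow_orderOf_eq_one x
      rw [hx] at h0
      rw [← Subgroup.coe_pow, h0]; rfl
  obtain ⟨M, hM⟩ := exists_ind hJ hxp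
  have hM0 : M.Nonempty := by
    rw [Finset.nonempty_iff_ne_empty]
    rintro rfl
    rw [Finset.card_empty, mul_zero, Finset.card_eq_zero, Perm.support_eq_empty_iff] at hM
    exact hx1 hM
  have hind : ∀ M' : Finset I, M'.card = M.card → wr J 1 1 (ind p M') ∈ T := fun M' h =>
    good x hx hxp _ (tr_mem_Sw P _) (tr_pow_p _) (by rw [hM, card_support_ind, h])
  have base : ∀ a : I → ZMod p, Perm.sign (wr J 1 1 a) = 1 → wr J 1 1 a ∈ T := by
    by_cases hp2 : p = 2
    · obtain ⟨i, j, hij, hsw⟩ := h2 hp2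
      subst hp2
      have hM2 : 2 ≤ M.card := by
        by_contra h
        obtain ⟨k, hk⟩ := Finset.card_eq_one.1 (show M.card = 1 by
          have := hM0.card_pos; omega)
        have h1 := (mem_inf.1 (hT (hind M rfl))).2
        have h3 : ind 2 M = Pi.single k 1 := by
          funext l
          by_cases h : l = k <;> simp [ind, hk, h]
        rw [Perm.mem_alternatingGroup, h3, sign_tr_single, sign_addRight_two rfl] at h1
        exact absurd h1 (by decide)
      obtain ⟨M', hM1, -, hM'⟩ := Finset.exists_subsuperset_card_eq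
        (Finset.subset_univ ({i, j} : Finset I)) (n := M.card)
        (by rw [Finset.card_pair hij]; exact hM2) (Finset.card_le_univ _)
      have hi : i ∈ M' := hM1 (by simp)
      have hj : j ∈ M' := hM1 (by simp)
      have hsq : ∀ a : I → ZMod 2, a i = a j → wr J (swap i j) 1 a ^ 2 = 1 := by
        intro a ha
        rw [sq, wr_mul', ← wr_one]
        refine wr_congr (swap_mul_self i j) (fun _ => rfl) fun k => ?_
        have : a (swap i j k) = a k := by
          rw [swap_apply_def]; split_ifs <;> simp_all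
        rw [this]
        exact CharTwo.add_self_eq_zero _
      have hu' : wr J (swap i j) 1 (ind 2 (M' \ {i, j})) ∈ T := by
        refine good x hx hxp _ (wr_mem_Sw hsw _) (hsq _ (by simp [ind])) ?_
        rw [hM, card_support_wr, ← hM']
        congr 2
        ext k
        by_cases h1 : k = i
        · subst h1; simp [hi, hij.symm]
        · by_cases h3 : k = j
          · subst h3; simp [hj, hij]
          · simp [ind, swap_apply_of_ne_of_ne h1 h3, h1, h3]
      have huu := T.mul_mem (hind M' hM') hu'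
      rw [wr_mul', one_mul] at huu
      have hpr : ∀ k l : I, pr 2 k l ∈ trSub T := by
        intro k l
        by_cases hkl : k = l
        · subst hkl
          have : pr 2 k k = 0 := by
            funext m
            exact CharTwo.add_self_eq_zero _
          rw [this]; exact zero_mem _
        refine good _ huu (hsq _ (by simp [ind, hi, hj])) _ (tr_mem_Sw P _) (tr_pow_p _) ?_
        rw [pr_eq_ind hkl, card_support_ind, Finset.card_pair hkl, card_support_wr]
        refine congrArg (2 * ·) (Eq.trans (congrArg Finset.card ?_) (Finset.card_pair hij))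
        ext m
        by_cases h1 : m = i
        · subst h1; simp [hij.symm]
        · by_cases h3 : m = j
          · subst h3; simp [hij]
          · by_cases h4 : m ∈ M'
            · simp [ind, swap_apply_of_ne_of_ne h1 h3, h1, h3, h4, zmod_two_one_add_one]
            · simp [ind, swap_apply_of_ne_of_ne h1 h3, h1, h3, h4]
      intro a ha
      have hb : (∑ k, a k • pr 2 k i) ∈ trSub T := by
        refine AddSubgroup.sum_mem _ fun k _ => ?_
        rcases zmod_two_cases (a k) with h | h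
        · rw [h, zero_smul]; exact zero_mem _
        · rw [h, one_smul]; exact hpr k i
      have hb' : (∑ k, a k • pr 2 k i) = a + Pi.single i (∑ k, a k) := by
        simp only [pr, smul_add, Finset.sum_add_distrib, ← Finset.sum_smul]
        congr 1
        · conv_rhs => rw [← Finset.univ_sum_single a]
          exact Finset.sum_congr rfl fun k _ => by rw [← Pi.single_smul, smul_eq_mul, mul_one]
        · rw [← Pi.single_smul, smul_eq_mul, mul_one]
      rw [hb'] at hb
      rcases zmod_two_cases (∑ k, a k) with h | h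
      · rw [h, Pi.single_zero, add_zero] at hb; exact hb
      · have h1 := (mem_inf.1 (hT hb)).2
        rw [Perm.mem_alternatingGroup, ← tr_mul, map_mul, ha, h, sign_tr_single,
          sign_addRight_two rfl] at h1
        exact absurd h1 (by decide)
    · obtain ⟨i, hi⟩ := hM0
      have h20 : (2 : ZMod p) ≠ 0 := by
        intro h
        have : ((2 : ℕ) : ZMod p) = 0 := by exact_mod_cast h
        rw [ZMod.natCast_eq_zero_iff] at this
        exact hp2 ((Nat.prime_dvd_prime_iff_eq hp.out Nat.prime_two).1 this)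
      have hv : ind p M - Pi.single i 2 ∈ trSub T := by
        refine good x hx hxp _ (tr_mem_Sw P _) (tr_pow_p _) ?_
        rw [hM, card_support_tr]
        congr 2
        ext k
        rw [Finset.mem_filter, Pi.sub_apply]
        by_cases h : k = i
        · subst h
          have : (1 : ZMod p) - 2 ≠ 0 := by norm_num
          simp [ind, hi, this]
        · by_cases h3 : k ∈ M <;> simp [ind, h, h3]
      have hw : (Pi.single i 2 : I → ZMod p) ∈ trSub T := by
        have := (trSub T).sub_mem (mem_trSub.2 (hind M rfl)) hv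
        rwa [sub_sub_cancel] at this
      intro a _
      rw [← Finset.univ_sum_single a]
      refine (trSub T).sum_mem fun k _ => ?_
      by_cases h : a k = 0
      · rw [h, Pi.single_zero]; exact zero_mem _
      · exact good _ hw (tr_pow_p _) _ (tr_mem_Sw P _) (tr_pow_p _)
          (by rw [card_support_single _ h20, card_support_single _ h])
  have hall : ∀ y ∈ Sw p J P, Perm.sign y = 1 → y ^ p = 1 → y ∈ T := by
    intro y hy hs hyp
    obtain ⟨N, hN⟩ := exists_ind hJ hyp
    obtain ⟨g, -, hg⟩ := exists_even_conj hI hJ hyp (tr_pow_p (ind p N))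
      (by rw [hN, card_support_ind])
    refine good _ (base (ind p N) ?_) (tr_pow_p _) y hy hyp (by rw [hN, card_support_ind])
    rw [← hg, map_mul, map_mul, map_inv, hs, mul_one, mul_inv_cancel]
  refine le_antisymm hT ?_
  intro g hg
  obtain ⟨⟨σ, hσ, a, rfl⟩, hs⟩ := mem_inf.1 hg
  obtain ⟨k, hk⟩ := hP.isPGroup ⟨σ, hσ⟩
  have hk' : σ ^ p ^ k = 1 := congrArg Subtype.val hk
  rw [Perm.mem_alternatingGroup, wr_eq_top_mul_tr, map_mul, sign_top_of_pow hk',
    one_mul] at hs
  rw [wr_eq_top_mul_tr]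
  refine T.mul_mem (genP_sylow _ I rfl P hP (T.comap (topH p J)) (fun τ hτ hτp => ?_) hσ)
    (base a hs)
  exact hall _ (wr_mem_Sw hτ 0) (sign_top_of_pow (k := 1) (by rwa [pow_one]))
    (by show topH p J τ ^ p = 1; rw [← map_pow, hτp, map_one])

/-! ### Permutations normalizing the Sylow subgroup are monomial-affine -/

theorem exists_ne_ne (hI : 3 ≤ Fintype.card I) (i j : I) : ∃ k, k ≠ i ∧ k ≠ j := by
  by_contra h
  push Not at h
  have : (Finset.univ : Finset I) ⊆ {i, j} := fun k _ => by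
    by_cases h1 : k = i
    · simp [h1]
    · simp [h k h1]
  have h2 := Finset.card_le_card this
  have h3 : ({i, j} : Finset I).card ≤ 2 := Finset.card_le_two
  rw [Finset.card_univ] at h2
  omega

theorem pr_apply_left {i l : I} (h : i ≠ l) : pr p i l i = 1 := by simp [pr, h]

theorem pr_apply_of_ne {i l k : I} (h1 : k ≠ i) (h2 : k ≠ l) : pr p i l k = 0 := by
  simp [pr, h1, h2]

theorem fix_block {s : Perm (Pt p I J)} (hs : s ∈ Sw p J (⊤ : Subgroup (Perm I))) {i : I}
    {x : ZMod p} (h : s (Sum.inl (i, x)) = Sum.inl (i, x)) (y : ZMod p) :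
    s (Sum.inl (i, y)) = Sum.inl (i, y) := by
  obtain ⟨σ, -, a, rfl⟩ := hs
  simp only [wr_inl, Pi.one_apply, Units.val_one, one_mul, Sum.inl.injEq, Prod.mk.injEq,
    add_eq_left] at h ⊢
  exact h

theorem exists_blocks [Subsingleton J] (hI : 3 ≤ Fintype.card I) {h : Perm (Pt p I J)}
    (H : ∀ i l, i ≠ l → h⁻¹ * wr J 1 1 (pr p i l) * h ∈ Sw p J (⊤ : Subgroup (Perm I))) :
    ∃ (σ : I → I) (f : I → ZMod p → ZMod p), ∀ i x, h (Sum.inl (i, x)) = Sum.inl (σ i, f i x) := by
  have key : ∀ i x y k η l, k ≠ l → h (Sum.inl (i, y)) = Sum.inl (k, η) →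
      wr J 1 1 (pr p k l) (h (Sum.inl (i, x))) ≠ h (Sum.inl (i, x)) := by
    intro i x y k η l hkl hy hx
    have h1 := fix_block (H k l hkl) (i := i) (x := x) (by
      rw [Perm.mul_apply, Perm.mul_apply, hx]; simp) y
    rw [Perm.mul_apply, Perm.mul_apply, Perm.inv_eq_iff_eq, hy] at h1
    simp [pr_apply_left hkl] at h1
  have h1 : ∀ i x, ∃ k ξ, h (Sum.inl (i, x)) = Sum.inl (k, ξ) := by
    intro i x
    rcases hx : h (Sum.inl (i, x)) with ⟨k, ξ⟩ | j
    · exact ⟨k, ξ, rfl⟩
    exfalso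
    rcases hy : h (Sum.inl (i, x + 1)) with ⟨k, η⟩ | j'
    · obtain ⟨l, hl, -⟩ := exists_ne_ne hI k k
      exact key i x (x + 1) k η l hl.symm hy (by rw [hx]; rfl)
    · rw [Subsingleton.elim j' j, ← hx] at hy
      simpa using hy
  choose σ f hf using h1
  refine ⟨fun i => σ i 0, f, fun i x => ?_⟩
  by_contra hne
  have h3 : σ i x ≠ σ i 0 := fun e => hne (by rw [hf, e])
  obtain ⟨l, hl1, hl2⟩ := exists_ne_ne hI (σ i 0) (σ i x)
  refine key i x 0 _ _ l hl1.symm (hf i 0) ?_
  rw [hf]
  simp [pr_apply_of_ne h3 hl2.symm]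

theorem mem_Wr_of_conj [Subsingleton J] (hI : 3 ≤ Fintype.card I) {h : Perm (Pt p I J)}
    (H1 : ∀ i l, i ≠ l → h⁻¹ * wr J 1 1 (pr p i l) * h ∈ Sw p J (⊤ : Subgroup (Perm I)))
    (H2 : ∀ i l, i ≠ l → h * wr J 1 1 (pr p i l) * h⁻¹ ∈ Sw p J (⊤ : Subgroup (Perm I))) :
    h ∈ Wr p I J := by
  obtain ⟨σ, f, hf⟩ := exists_blocks hI H1
  obtain ⟨ρ, g, hg⟩ := exists_blocks (h := h⁻¹) hI (by simpa using H2)
  have hinj : Function.Injective σ := by
    refine Function.LeftInverse.injective (g := ρ) fun i => ?_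
    have := hg (σ i) (f i 0)
    rw [← hf, pinv_apply] at this
    exact (Prod.ext_iff.1 (Sum.inl_injective this)).1.symm
  have hc : ∀ i, ∃ c : (ZMod p)ˣ, ∀ x, f i x = c * x + f i 0 := by
    intro i
    obtain ⟨l, hl, -⟩ := exists_ne_ne hI i i
    obtain ⟨τ, -, a, ha⟩ := H2 i l hl.symm
    have h1 : ∀ x, f i (x + 1) = f i x + a (σ i) := by
      intro x
      have := congrArg (fun s : Perm (Pt p I J) => s (h (Sum.inl (i, x)))) ha
      simp only [Perm.mul_apply, pinv_apply] at this
      simp only [wr_inl, Perm.coe_one, id, Pi.one_apply,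
        Units.val_one, one_mul, pr_apply_left hl.symm, hf] at this
      exact (Prod.ext_iff.1 (Sum.inl_injective this)).2
    have h2 : ∀ n : ℕ, f i n = a (σ i) * n + f i 0 := by
      intro n
      induction n with
      | zero => simp
      | succ n ih => rw [Nat.cast_succ, h1, ih]; ring
    have h3 : a (σ i) ≠ 0 := by
      intro h0
      have h4 := h1 0
      rw [h0, add_zero] at h4
      have h5 : h (Sum.inl (i, 0 + 1)) = h (Sum.inl (i, 0)) := by rw [hf, hf, h4]
      simpa using h5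
    refine ⟨Units.mk0 _ h3, fun x => ?_⟩
    have := h2 x.val
    rwa [ZMod.natCast_zmod_val] at this
  choose c hc using hc
  refine ⟨Equiv.ofBijective σ (Finite.injective_iff_bijective.1 hinj), c, fun i => f i 0,
    pt_ext (fun i x => by rw [hf, hc]; rfl) fun j => ?_⟩
  rcases hj : h (Sum.inr j) with ⟨k, ξ⟩ | j'
  · have := hg k ξ
    rw [← hj, pinv_apply] at this
    exact absurd this (by simp)
  · rw [Subsingleton.elim j' j]; rfl

theorem centralizer_base_le [Subsingleton J] (hI : 3 ≤ Fintype.card I) {c : Perm (Pt p I J)}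
    (hc : ∀ i l, wr J 1 1 (pr p i l) * c = c * wr J 1 1 (pr p i l)) :
    c ∈ Sw p J (⊥ : Subgroup (Perm I)) := by
  obtain ⟨σ, l, a, rfl⟩ := mem_Wr_of_conj (h := c) hI
    (fun i l _ => by rw [mul_assoc, hc, inv_mul_cancel_left]; exact tr_mem_Sw _ _)
    (fun i l _ => by rw [← hc, mul_inv_cancel_right]; exact tr_mem_Sw _ _)
  have h1 : ∀ i k, i ≠ k → pr p i k (σ i) = l i := by
    intro i k hik
    have := hc i k
    rw [wr_mul, wr_mul, wr_eq_iff] at this
    have h2 := congrFun this.2.2 i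
    simp only [pr_apply_left hik, Pi.one_apply, Units.val_one, one_mul, mul_one, Perm.coe_one,
      id] at h2
    linear_combination h2
  have h2 : ∀ i, σ i = i := by
    intro i
    by_contra h
    obtain ⟨k, hk1, hk2⟩ := exists_ne_ne hI i (σ i)
    have := h1 i k hk1.symm
    rw [pr_apply_of_ne h hk2.symm] at this
    exact (l i).ne_zero this.symm
  refine mem_Sw_bot.2 ⟨a, wr_congr (Equiv.ext h2) (fun i => Units.ext ?_) fun _ => rfl⟩
  obtain ⟨k, hk, -⟩ := exists_ne_ne hI i i
  rw [← h1 i k hk.symm, h2, pr_apply_left hk.symm]; rfl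

theorem Wr_le_normalizer : Wr p I J ≤ normalizer
    ((Sw p J (⊥ : Subgroup (Perm I)) ⊓ alternatingGroup (Pt p I J) : Subgroup _) : Set (Perm (Pt p I J))) := by
  rintro _ ⟨σ, l, a, rfl⟩
  refine Fus.mem_normalizer_of_finite ?_
  rintro x ⟨hx, hs⟩
  refine ⟨?_, (alternatingGroup.normal).conj_mem _ hs _⟩
  obtain ⟨b, rfl⟩ := mem_Sw_bot.1 hx
  rw [conj_tr]; exact tr_mem_Sw _ _

/-! ### Generation of the even monomial-affine group -/

theorem alt_le_of_pElts (hp2 : p ≠ 2) {τ : Perm I} {i : I} (hτ : τ ^ p = 1) (h1 : τ i ≠ i)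
    (h2 : τ (τ i) ≠ i) (K : Subgroup (Perm I)) (hK : ∀ σ, σ ^ p = 1 → σ ∈ K) :
    alternatingGroup I ≤ K := by
  have _ := hp2
  have hconj : ∀ σ ∈ closure {σ : Perm I | σ ^ p = 1}, ∀ g,
      g * σ * g⁻¹ ∈ closure {σ : Perm I | σ ^ p = 1} := by
    intro σ hσ g
    induction hσ using closure_induction with
    | mem x hx => exact subset_closure (show _ ^ p = 1 by rw [conj_pow, hx]; simp)
    | one => simpa using one_mem _
    | mul x y _ _ hx hy =>
      have := mul_mem hx hy
      convert this using 1; group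
    | inv x _ hx =>
      have := inv_mem hx
      convert this using 1; group
  have h3 : swap (τ i) (τ (τ i)) * swap (τ i) i ∈ closure {σ : Perm I | σ ^ p = 1} := by
    have h4 := mul_mem (subset_closure (k := {σ : Perm I | σ ^ p = 1}) hτ)
      (hconj _ (inv_mem (subset_closure (k := {σ : Perm I | σ ^ p = 1}) hτ)) (swap i (τ i)))
    convert h4 using 1
    rw [swap_apply_apply τ i (τ i), swap_comm (τ i) i, swap_inv]
    group
  have h5 : (swap (τ i) (τ (τ i)) * swap (τ i) i).IsThreeCycle :=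
    Perm.isThreeCycle_swap_mul_swap_same (fun h => h1 (τ.injective h).symm) h1 h2
  rw [← Perm.closure_three_cycles_eq_alternating, closure_le]
  intro σ hσ
  obtain ⟨g, rfl⟩ := isConj_iff.1 (Perm.isConj_iff_cycleType_eq.2 (h5.cycleType.trans hσ.cycleType.symm))
  exact (closure_le K).2 hK (hconj _ h3 g)

theorem even_Wr_le_two (hp2 : p = 2) (K : Subgroup (Perm (Pt p I J)))
    (hK : ∀ g ∈ Wr p I J, Perm.sign g = 1 → g ^ p = 1 → g ∈ K) {g : Perm (Pt p I J)}
    (hg : g ∈ Wr p I J) (hs : Perm.sign g = 1) : g ∈ K := by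
  obtain ⟨σ, l, a, rfl⟩ := hg
  have hl : l = 1 := by
    subst hp2
    funext i
    exact Subsingleton.elim _ _
  have hst : ∀ σ : Perm I, Perm.sign (topH p J σ) = 1 := fun σ => by
    rw [sign_top, hp2, sq, Int.units_mul_self]
  subst hl
  rw [wr_eq_top_mul_tr] at hs ⊢
  rw [map_mul, hst, one_mul] at hs
  refine K.mul_mem ?_ (hK _ (wr_mem_Wr ..) hs (tr_pow_p a))
  induction σ using Perm.swap_induction_on with
  | one => rw [map_one]; exact K.one_mem
  | swap_mul f x y _ ih =>
    rw [map_mul]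
    refine K.mul_mem (hK _ (wr_mem_Wr ..) (hst _) ?_) ih
    have : swap x y ^ p = 1 := by rw [hp2, sq, swap_mul_self]
    rw [← map_pow, this, map_one]

theorem even_Wr_le_odd (hp2 : p ≠ 2) (hI : 3 ≤ Fintype.card I) {τ : Perm I} {i₀ : I}
    (hτ : τ ^ p = 1) (h1 : τ i₀ ≠ i₀) (h2 : τ (τ i₀) ≠ i₀) (K : Subgroup (Perm (Pt p I J)))
    (hKA : K ≤ alternatingGroup _) (hK : ∀ g ∈ Wr p I J, g ^ p = 1 → g ∈ K)
    (hd : ∀ d : (ZMod p)ˣ, ∃ σ l a, wr J σ l a ∈ K ∧ ∏ i, l i = d) {g : Perm (Pt p I J)}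
    (hg : g ∈ Wr p I J) (hs : Perm.sign g = 1) : g ∈ K := by
  have htop : ∀ l : I → (ZMod p)ˣ, ∀ σ ∈ alternatingGroup I,
      mlH J l * topH p J σ * (mlH J l)⁻¹ ∈ K := by
    intro l
    refine alt_le_of_pElts hp2 hτ h1 h2
      (K.comap ((MulAut.conj (mlH J l)).toMonoidHom.comp (topH p J))) fun σ hσ => ?_
    refine hK _ ((Wr p I J).mul_mem ((Wr p I J).mul_mem (wr_mem_Wr ..) (wr_mem_Wr ..))
      ((Wr p I J).inv_mem (wr_mem_Wr ..))) ?_
    rw [← map_pow, hσ, map_one]
  have htop1 : ∀ σ ∈ alternatingGroup I, topH p J σ ∈ K := fun σ hσ => by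
    simpa using htop 1 σ hσ
  have hpair : ∀ (i j : I) (c : (ZMod p)ˣ), mlH J (Pi.mulSingle j c * Pi.mulSingle i c⁻¹) ∈ K := by
    intro i j c
    by_cases hij : i = j
    · subst hij
      rw [← Pi.mulSingle_mul, mul_inv_cancel, Pi.mulSingle_one, map_one]; exact K.one_mem
    obtain ⟨k, hk1, hk2⟩ := exists_ne_ne hI i j
    have hσ : swap j k * swap j i ∈ alternatingGroup I :=
      (Perm.isThreeCycle_swap_mul_swap_same hk2.symm (Ne.symm hij) hk1).mem_alternatingGroup
    have h3 := K.mul_mem (htop (Pi.mulSingle j c) _ hσ) (K.inv_mem (htop1 _ hσ))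
    convert h3 using 1
    set σ := swap j k * swap j i with hσd
    have hσj : σ j = i := by
      rw [hσd, Perm.mul_apply, swap_apply_left, swap_apply_of_ne_of_ne hij hk1.symm]
    rw [← map_inv, ← map_inv, mlH_apply, mlH_apply, mlH_apply, topH_apply, topH_apply, wr_mul,
      wr_mul, wr_mul]
    refine wr_congr (by simp) (fun m => ?_) fun m => by
      simp only [Pi.zero_apply, mul_zero, add_zero]
    have h4 : (Pi.mulSingle j c : I → (ZMod p)ˣ) (σ⁻¹ m) = (Pi.mulSingle i c : I → (ZMod p)ˣ) m := by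
      by_cases hm : m = i
      · subst hm
        rw [← hσj, pinv_apply, hσj]; simp
      · have : σ⁻¹ m ≠ j := fun e => hm (by rw [← hσj, ← e, papply_inv])
        rw [Pi.mulSingle_eq_of_ne this, Pi.mulSingle_eq_of_ne hm]
    simp only [Pi.mul_apply, Pi.one_apply, Pi.inv_apply, Perm.mul_apply, Perm.coe_one, id,
      papply_inv, mul_one, h4, Pi.mulSingle_inv]
  have hml : ∀ l : I → (ZMod p)ˣ, ∏ i, l i = 1 → mlH J l ∈ K := by
    intro l hl
    have h3 : (∏ j, (Pi.mulSingle j (l j) * Pi.mulSingle i₀ (l j)⁻¹) : I → (ZMod p)ˣ) ∈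
        K.comap (mlH J) := prod_mem fun j _ => hpair i₀ j (l j)
    rw [Finset.prod_mul_distrib, Finset.univ_prod_mulSingle] at h3
    have h4 : (∏ j, Pi.mulSingle i₀ (l j)⁻¹ : I → (ZMod p)ˣ) = 1 := by
      have := map_prod (MonoidHom.mulSingle (fun _ : I => (ZMod p)ˣ) i₀) (fun j => (l j)⁻¹)
        Finset.univ
      simp only [MonoidHom.mulSingle_apply] at this
      rw [← this, Finset.prod_inv_distrib, hl, inv_one, Pi.mulSingle_one]
    rwa [h4, mul_one] at h3
  have hdet : ∀ σ l a, ∏ i, l i = 1 → Perm.sign (wr J σ l a) = 1 → wr J σ l a ∈ K := by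
    intro σ l a hl hs
    have h3 := K.mul_mem (hK _ (wr_mem_Wr 1 1 a) (tr_pow_p a)) (hml l hl)
    rw [wr_eq_mul] at hs ⊢
    rw [map_mul, Perm.mem_alternatingGroup.1 (hKA h3), mul_one, sign_top] at hs
    refine K.mul_mem (htop1 σ ?_) h3
    rcases Int.units_eq_one_or (Perm.sign σ) with h | h
    · exact h
    · rw [h, (hp.out.odd_of_ne_two hp2).neg_one_pow] at hs
      exact absurd hs (by decide)
  obtain ⟨σ, l, a, rfl⟩ := hg
  obtain ⟨σ', l', a', hk, hl'⟩ := hd (∏ i, l i)⁻¹
  have h3 : wr J σ l a * wr J σ' l' a' ∈ K := by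
    have h4 : Perm.sign (wr J σ l a * wr J σ' l' a') = 1 := by
      rw [map_mul, hs, Perm.mem_alternatingGroup.1 (hKA hk), one_mul]
    rw [wr_mul] at h4 ⊢
    refine hdet _ _ _ ?_ h4
    rw [Finset.prod_mul_distrib, hl', Equiv.prod_comp σ' l, mul_inv_cancel]
  simpa using K.mul_mem h3 (K.inv_mem hk)

end Cfsg.Agent.H3.Alt
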