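import Mathlib
import Cfsg.Agent.H3.AltFus

/-! Simplicity of the `p`-fusion system of an alternating group. -/

set_option autoImplicit false
set_option linter.unusedSectionVars false

namespace Cfsg.Agent.H3.Alt

open Equiv Subgroup Cfsg.Agent.L

variable {p : ℕ} [hp : Fact p.Prime] {I J : Type}

/-- The `p`-cycle on the first `p` blocks. -/
def cyc (I : Type) (b : ZMod p) : Perm (ZMod p ⊕ I) := Perm.sumCongr (Equiv.addRight b) 1

@[simp] theorem cyc_inl (b y : ZMod p) : cyc I b (Sum.inl y) = Sum.inl (y + b) := rfl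
@[simp] theorem cyc_inr (b : ZMod p) (i : I) : cyc I b (Sum.inr i) = Sum.inr i := rfl

theorem cyc_mul (b c : ZMod p) : cyc I b * cyc I c = cyc I (c + b) := by
  ext z; rcases z with y | i <;> simp [add_assoc]

theorem cyc_zero : cyc I (0 : ZMod p) = 1 := by
  ext z; rcases z with y | i <;> simp

theorem cyc_pow (b : ZMod p) (n : ℕ) : cyc I b ^ n = cyc I ((n : ZMod p) * b) := by
  induction n with
  | zero => simp [cyc_zero]
  | succ n ih => rw [pow_succ, ih, cyc_mul]; congr 1; push_cast; ring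

theorem cyc_pow_p (b : ZMod p) : cyc I b ^ p = 1 := by
  rw [cyc_pow, ZMod.natCast_self, zero_mul, cyc_zero]

theorem pt_ext3 {g h : Perm (Pt p (ZMod p ⊕ I) J)}
    (h1 : ∀ y x, g (Sum.inl (Sum.inl y, x)) = h (Sum.inl (Sum.inl y, x)))
    (h2 : ∀ i x, g (Sum.inl (Sum.inr i, x)) = h (Sum.inl (Sum.inr i, x)))
    (h3 : ∀ j, g (Sum.inr j) = h (Sum.inr j)) : g = h :=
  pt_ext (fun i x => by rcases i with y | i; exacts [h1 y x, h2 i x]) h3

/-- Translation of the big block by `(b, c)` and of the other blocks by `a`. -/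
def rr (J : Type) (b c : ZMod p) (a : I → ZMod p) : Perm (Pt p (ZMod p ⊕ I) J) :=
  wr J (cyc I b) 1 (Sum.elim (fun _ => c) a)

@[simp] theorem rr_big (b c : ZMod p) (a : I → ZMod p) (y x : ZMod p) :
    rr J b c a (Sum.inl (Sum.inl y, x)) = Sum.inl (Sum.inl (y + b), x + c) := by simp [rr]
@[simp] theorem rr_small (b c : ZMod p) (a : I → ZMod p) (i : I) (x : ZMod p) :
    rr J b c a (Sum.inl (Sum.inr i, x)) = Sum.inl (Sum.inr i, x + a i) := by simp [rr]
@[simp] theorem rr_inr (b c : ZMod p) (a : I → ZMod p) (j : J) :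
    rr J b c a (Sum.inr j) = Sum.inr j := rfl

theorem rr_mul (b c b' c' : ZMod p) (a a' : I → ZMod p) :
    rr J b c a * rr J b' c' a' = rr J (b' + b) (c' + c) (a' + a) :=
  pt_ext3 (fun y x => by simp [add_assoc]) (fun i x => by simp [add_assoc]) fun j => rfl

theorem rr_zero : rr J (0 : ZMod p) 0 (0 : I → ZMod p) = 1 :=
  pt_ext3 (fun y x => by simp) (fun i x => by simp) fun j => rfl

/-- The self-centralizing subgroup acting regularly on the big block. -/
def Rg (p : ℕ) [Fact p.Prime] (I J : Type) : Subgroup (Perm (Pt p (ZMod p ⊕ I) J)) where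
  carrier := {g | ∃ b c a, g = rr J b c a}
  one_mem' := ⟨0, 0, 0, rr_zero.symm⟩
  mul_mem' := by
    rintro _ _ ⟨b, c, a, rfl⟩ ⟨b', c', a', rfl⟩
    exact ⟨_, _, _, rr_mul ..⟩
  inv_mem' := by
    rintro _ ⟨b, c, a, rfl⟩
    refine ⟨-b, -c, -a, ?_⟩
    rw [inv_eq_iff_mul_eq_one, rr_mul, neg_add_cancel, neg_add_cancel, neg_add_cancel, rr_zero]

/-- A linear map of the big block, as a function. -/
def linF (I J : Type) (a b c d : ZMod p) : Pt p (ZMod p ⊕ I) J → Pt p (ZMod p ⊕ I) J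
  | Sum.inl (Sum.inl y, x) => Sum.inl (Sum.inl (a * y + b * x), c * y + d * x)
  | Sum.inl (Sum.inr i, x) => Sum.inl (Sum.inr i, x)
  | Sum.inr j => Sum.inr j

theorem linF_linF {a b c d a' b' c' d' : ZMod p} (h1 : a * a' + b * c' = 1)
    (h2 : a * b' + b * d' = 0) (h3 : c * a' + d * c' = 0) (h4 : c * b' + d * d' = 1)
    (z : Pt p (ZMod p ⊕ I) J) : linF I J a b c d (linF I J a' b' c' d' z) = z := by
  rcases z with ⟨y | i, x⟩ | j
  · simp only [linF, Sum.inl.injEq, Prod.mk.injEq]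
    exact ⟨by linear_combination y * h1 + x * h2, by linear_combination y * h3 + x * h4⟩
  · rfl
  · rfl

/-- A linear map of determinant one of the big block. -/
def lin (I J : Type) (a b c d : ZMod p) (h : a * d - b * c = 1) : Perm (Pt p (ZMod p ⊕ I) J) where
  toFun := linF I J a b c d
  invFun := linF I J d (-b) (-c) a
  left_inv := linF_linF (by linear_combination h) (by ring) (by ring) (by linear_combination h)
  right_inv := linF_linF (by linear_combination h) (by ring) (by ring) (by linear_combination h)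

@[simp] theorem lin_big (a b c d : ZMod p) (h) (y x : ZMod p) :
    lin I J a b c d h (Sum.inl (Sum.inl y, x)) = Sum.inl (Sum.inl (a * y + b * x), c * y + d * x) :=
  rfl
@[simp] theorem lin_small (a b c d : ZMod p) (h) (i : I) (x : ZMod p) :
    lin I J a b c d h (Sum.inl (Sum.inr i, x)) = Sum.inl (Sum.inr i, x) := rfl
@[simp] theorem lin_inr (a b c d : ZMod p) (h) (j : J) :
    lin I J a b c d h (Sum.inr j) = Sum.inr j := rfl

theorem lin_congr {a b c d a' b' c' d' : ZMod p} {h h'} (h1 : a = a') (h2 : b = b') (h3 : c = c')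
    (h4 : d = d') : lin I J a b c d h = lin I J a' b' c' d' h' := by
  subst h1 h2 h3 h4; rfl

theorem lin_mul {a b c d a' b' c' d' : ZMod p} {h h'} :
    lin I J a b c d h * lin I J a' b' c' d' h' = lin I J (a * a' + b * c') (a * b' + b * d')
      (c * a' + d * c') (c * b' + d * d')
      (by linear_combination (a' * d' - b' * c') * h + h') := by
  refine pt_ext3 (fun y x => ?_) (fun i x => rfl) fun j => rfl
  simp only [Perm.mul_apply, lin_big, Sum.inl.injEq, Prod.mk.injEq]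
  exact ⟨by ring, by ring⟩

theorem lin_one : lin I J (1 : ZMod p) 0 0 1 (by ring) = 1 :=
  pt_ext3 (fun y x => by simp) (fun i x => rfl) fun j => rfl

theorem lin_upper_pow (t : ZMod p) (n : ℕ) :
    lin I J 1 t 0 1 (by ring) ^ n = lin I J 1 ((n : ZMod p) * t) 0 1 (by ring) := by
  induction n with
  | zero => rw [pow_zero, ← lin_one]; exact lin_congr rfl (by simp) rfl rfl
  | succ n ih =>
    rw [pow_succ, ih, lin_mul]
    exact lin_congr (by ring) (by push_cast; ring) (by ring) (by ring)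

theorem lin_lower_pow (t : ZMod p) (n : ℕ) :
    lin I J 1 0 t 1 (by ring) ^ n = lin I J 1 0 ((n : ZMod p) * t) 1 (by ring) := by
  induction n with
  | zero => rw [pow_zero, ← lin_one]; exact lin_congr rfl rfl (by simp) rfl
  | succ n ih =>
    rw [pow_succ, ih, lin_mul]
    exact lin_congr (by ring) (by ring) (by push_cast; ring) (by ring)

theorem lin_diag_mem (K : Subgroup (Perm (Pt p (ZMod p ⊕ I) J)))
    (hK : ∀ a b c d h, lin I J a b c d h ^ p = 1 → lin I J a b c d h ∈ K) {d e : ZMod p}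
    (hd : e * d = 1) : lin I J e 0 0 d (by linear_combination hd) ∈ K := by
  have hu : ∀ t, lin I J 1 t 0 1 (by ring) ∈ K := fun t => hK _ _ _ _ _ (by
    rw [lin_upper_pow, ← lin_one]; exact lin_congr rfl (by simp) rfl rfl)
  have hl : ∀ t, lin I J 1 0 t 1 (by ring) ∈ K := fun t => hK _ _ _ _ _ (by
    rw [lin_lower_pow, ← lin_one]; exact lin_congr rfl rfl (by simp) rfl)
  have h := K.mul_mem (K.mul_mem (K.mul_mem (hu e) (hl (-d))) (hu e))
    (K.mul_mem (K.mul_mem (hu (-1)) (hl 1)) (hu (-1)))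
  simp only [lin_mul] at h
  convert h using 1
  exact lin_congr (by linear_combination e * hd)
    (by linear_combination -hd) (by linear_combination hd) (by ring)

theorem lin_diag_eq (d e : (ZMod p)ˣ) (h) :
    lin I J (e : ZMod p) 0 0 d h =
      wr J (Perm.sumCongr e.mulLeft 1) (Sum.elim (fun _ => d) 1) 0 :=
  pt_ext3 (fun y x => by simp) (fun i x => by simp) fun j => rfl

theorem lin_conj_rr (a b c d : ZMod p) (h) (s t : ZMod p) (e : I → ZMod p) :
    lin I J a b c d h * rr J s t e * (lin I J a b c d h)⁻¹ =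
      rr J (a * s + b * t) (c * s + d * t) e := by
  rw [mul_inv_eq_iff_eq_mul]
  refine pt_ext3 (fun y x => ?_) (fun i x => by simp) fun j => rfl
  simp only [Perm.mul_apply, lin_big, rr_big, Sum.inl.injEq, Prod.mk.injEq]
  exact ⟨by ring, by ring⟩

variable [Fintype I] [DecidableEq I] [Fintype J] [DecidableEq J]

theorem lin_mem_normalizer (a b c d : ZMod p) (h) :
    lin I J a b c d h ∈ normalizer (Rg p I J : Set (Perm (Pt p (ZMod p ⊕ I) J))) := by
  refine Fus.mem_normalizer_of_finite ?_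
  rintro _ ⟨s, t, e, rfl⟩
  exact ⟨_, _, _, lin_conj_rr ..⟩

theorem centralizer_Rg_le [Subsingleton J] :
    centralizer (Rg p I J : Set (Perm (Pt p (ZMod p ⊕ I) J))) ≤ Rg p I J := by
  intro g hg
  have hc : ∀ b c a z, rr J b c a (g z) = g (rr J b c a z) := fun b c a z =>
    congrArg (fun s : Perm _ => s z) (hg _ ⟨b, c, a, rfl⟩)
  have hbig : ∃ b c, g (Sum.inl (Sum.inl 0, 0)) = Sum.inl (Sum.inl b, c) := by
    have h1 := hc 0 1 0 (Sum.inl (Sum.inl 0, 0))
    rcases h0 : g (Sum.inl (Sum.inl 0, 0)) with ⟨b | i, c⟩ | j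
    · exact ⟨b, c, rfl⟩
    · rw [h0, rr_small, Pi.zero_apply, add_zero, ← h0] at h1
      simpa using h1
    · rw [h0, rr_inr, ← h0] at h1
      simpa using h1
  have hsmall : ∀ i, ∃ c, g (Sum.inl (Sum.inr i, 0)) = Sum.inl (Sum.inr i, c) := by
    intro i
    have h1 := hc 0 0 (Pi.single i 1) (Sum.inl (Sum.inr i, 0))
    rcases h0 : g (Sum.inl (Sum.inr i, 0)) with ⟨b | k, c⟩ | j
    · rw [h0, rr_big, add_zero, add_zero, ← h0] at h1
      simpa using h1
    · by_cases hk : k = i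
      · exact ⟨c, by rw [hk]⟩
      · rw [h0, rr_small, Pi.single_eq_of_ne hk, add_zero, ← h0] at h1
        simpa using h1
    · rw [h0, rr_inr, ← h0] at h1
      simpa using h1
  obtain ⟨b, c, hbc⟩ := hbig
  choose a ha using hsmall
  have h1 : ∀ y x, g (Sum.inl (Sum.inl y, x)) = rr J b c a (Sum.inl (Sum.inl y, x)) := by
    intro y x
    have := hc y x 0 (Sum.inl (Sum.inl 0, 0))
    rw [hbc, rr_big, rr_big, zero_add, zero_add] at this
    rw [← this, rr_big, add_comm b, add_comm c]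
  have h2 : ∀ i x, g (Sum.inl (Sum.inr i, x)) = rr J b c a (Sum.inl (Sum.inr i, x)) := by
    intro i x
    have := hc 0 0 (Pi.single i x) (Sum.inl (Sum.inr i, 0))
    rw [ha, rr_small, rr_small, Pi.single_eq_same, zero_add] at this
    rw [← this, rr_small, add_comm]
  refine ⟨b, c, a, pt_ext3 h1 h2 fun j => ?_⟩
  rcases h0 : g (Sum.inr j) with ⟨y | i, x⟩ | j'
  · have := h1 (y - b) (x - c)
    rw [rr_big, sub_add_cancel, sub_add_cancel, ← h0] at this
    simpa using this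
  · have := h2 i (x - a i)
    rw [rr_small, sub_add_cancel, ← h0] at this
    simpa using this
  · rw [Subsingleton.elim j' j]; rfl

theorem exists_sylow_cyc : ∃ P : Subgroup (Perm (ZMod p ⊕ I)), IsSylowIn p P ⊤ ∧
    ∀ b : ZMod p, cyc I b ∈ P := by
  have h1 : IsPGroup p (zpowers (cyc I (1 : ZMod p))) := by
    refine IsPGroup.of_card_dvd_pow (n := 1) ?_
    rw [Nat.card_zpowers, pow_one]
    exact orderOf_dvd_of_pow_eq_one (cyc_pow_p 1)
  obtain ⟨P, hP, h2⟩ := exists_isSylowIn_ge h1 le_top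
  refine ⟨P, hP, fun b => ?_⟩
  have := h2 (pow_mem (mem_zpowers _) b.val)
  rwa [cyc_pow, ZMod.natCast_zmod_val, mul_one] at this

theorem isSylowIn_Sw_alt {I : Type} [Fintype I] [DecidableEq I] (hJ : Fintype.card J < p)
    {P : Subgroup (Perm I)} (hP : IsSylowIn p P ⊤) :
    IsSylowIn p (Sw p J P ⊓ alternatingGroup (Pt p I J)) (alternatingGroup (Pt p I J)) := by
  have := (isSylowIn_Sw hJ hP).inf_normal (alternatingGroup (Pt p I J))
  rwa [top_inf_eq] at this

theorem isSimple_alt_Pt [Subsingleton J] (hI : 3 ≤ Fintype.card (ZMod p ⊕ I))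
    (S : Sylow p (alternatingGroup (Pt p (ZMod p ⊕ I) J))) :
    (groupFusionSystem (S : Subgroup (alternatingGroup (Pt p (ZMod p ⊕ I) J)))).IsSimple p := by
  have hJ : Fintype.card J < p :=
    lt_of_le_of_lt (Fintype.card_le_one_iff_subsingleton.2 inferInstance) hp.out.one_lt
  obtain ⟨P, hP, hcyc⟩ := exists_sylow_cyc (p := p) (I := I)
  have hpr : ∀ (Q : Subgroup (Perm (ZMod p ⊕ I))) i l, wr J 1 1 (pr p i l) ∈
      Sw p J Q ⊓ alternatingGroup (Pt p (ZMod p ⊕ I) J) := fun Q i l =>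
    ⟨tr_mem_Sw _ _, Perm.mem_alternatingGroup.2 (sign_tr_pair i l)⟩
  refine isSimple_sub_of (isSylowIn_Sw_alt hJ hP) ?_ (sc_alt hI hJ hP ?_) ?_ S
  · intro h
    have h1 := hpr P (Sum.inl 0) (Sum.inl 1)
    rw [h, mem_bot, ← wr_one, wr_eq_iff] at h1
    have h2 := congrFun h1.2.2 (Sum.inl 0)
    rw [pr_apply_left (by simp)] at h2
    exact one_ne_zero h2
  · rintro rfl
    refine ⟨Sum.inl 0, Sum.inl 1, by simp, ?_⟩
    convert hcyc 1 using 1
    ext z
    rcases z with y | i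
    · rcases zmod_two_cases y with rfl | rfl
      · simp
      · simp [zmod_two_one_add_one]
    · rw [swap_apply_of_ne_of_ne (by simp) (by simp)]; rfl
  intro Φ h1 h2 h3 g hg hgn
  set E := Sw p J (⊥ : Subgroup (Perm (ZMod p ⊕ I))) ⊓ alternatingGroup (Pt p (ZMod p ⊕ I) J)
    with hE
  have hET : E ≤ Sw p J P ⊓ alternatingGroup (Pt p (ZMod p ⊕ I) J) :=
    inf_le_inf_right _ (Sw_mono bot_le)
  have hgW : g ∈ Wr p (ZMod p ⊕ I) J := by
    refine mem_Wr_of_conj hI (fun i l _ => Sw_mono (P := P) le_top ?_)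
      fun i l _ => Sw_mono (P := P) le_top ?_
    · have := Fus.conj_mem_of_mem_normalizer (inv_mem hgn) (hpr P i l)
      rw [inv_inv] at this
      exact (mem_inf.1 this).1
    · exact (mem_inf.1 (Fus.conj_mem_of_mem_normalizer hgn (hpr P i l))).1
  have hK : ∀ x ∈ Wr p (ZMod p ⊕ I) J, Perm.sign x = 1 → x ^ p = 1 →
      x ∈ Φ E ⊓ alternatingGroup (Pt p (ZMod p ⊕ I) J) := fun x hx hs hxp =>
    ⟨h1 E hET x (Perm.mem_alternatingGroup.2 hs) (Wr_le_normalizer hx) 1 (by rwa [pow_one]),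
      Perm.mem_alternatingGroup.2 hs⟩
  refine h2 E _ hET le_rfl ?_ g ?_ hgn
  · intro c hc
    exact ⟨centralizer_base_le hI fun i l => (mem_inf.1 hc).2 _ (hpr ⊥ i l), (mem_inf.1 hc).1⟩
  refine (mem_inf.1 (?_ : g ∈ Φ E ⊓ alternatingGroup (Pt p (ZMod p ⊕ I) J))).1
  by_cases hp2 : p = 2
  · exact even_Wr_le_two hp2 _ hK hgW (Perm.mem_alternatingGroup.1 hg)
  have h20 : (1 : ZMod p) + 1 ≠ 0 := by
    intro h
    have : ((2 : ℕ) : ZMod p) = 0 := by rw [← h]; norm_num
    rw [ZMod.natCast_eq_zero_iff] at this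
    exact hp2 ((Nat.prime_dvd_prime_iff_eq hp.out Nat.prime_two).1 this)
  refine even_Wr_le_odd hp2 hI (τ := cyc I 1) (i₀ := Sum.inl 0) (cyc_pow_p 1) (by simp)
    (by simpa using h20) _ inf_le_right
    (fun x hx hxp => hK x hx (sign_eq_one_of_pow hp2 (k := 1) (by rwa [pow_one])) hxp) (fun d => ?_)
    hgW (Perm.mem_alternatingGroup.1 hg)
  have hRT : Rg p I J ≤ Sw p J P ⊓ alternatingGroup (Pt p (ZMod p ⊕ I) J) := by
    rintro _ ⟨b, c, a, rfl⟩
    have h4 : rr J b c a ∈ Sw p J P := wr_mem_Sw (hcyc b) _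
    obtain ⟨k, hk⟩ := (isSylowIn_Sw hJ hP).isPGroup ⟨_, h4⟩
    exact ⟨h4, Perm.mem_alternatingGroup.2 (sign_eq_one_of_pow hp2 (congrArg Subtype.val hk))⟩
  have h5 := lin_diag_mem (Φ (Rg p I J) ⊓ alternatingGroup (Pt p (ZMod p ⊕ I) J))
    (fun a b c e h hh => by
      have hs := Perm.mem_alternatingGroup.2 (sign_eq_one_of_pow hp2 (k := 1) (by rwa [pow_one]))
      exact ⟨h1 _ hRT _ hs (lin_mem_normalizer a b c e h) 1 (by rwa [pow_one]), hs⟩)
    (Units.inv_mul d)
  have h6 : lin I J (d⁻¹ : (ZMod p)ˣ) 0 0 d (by linear_combination Units.inv_mul d) ∈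
      normalizer (E : Set (Perm (Pt p (ZMod p ⊕ I) J))) := by
    rw [lin_diag_eq]; exact Wr_le_normalizer (wr_mem_Wr ..)
  have h7 := h3 E (Rg p I J ⊔ E) le_sup_right (sup_le hRT hET) _
    (h2 (Rg p I J) (Rg p I J ⊔ E) le_sup_left (sup_le hRT hET)
      (inf_le_right.trans centralizer_Rg_le) _ (mem_inf.1 h5).1
      (normalizer_inf_normalizer_le_normalizer_sup _ _ ⟨lin_mem_normalizer _ _ _ _ _, h6⟩)) h6
  refine ⟨_, _, _, lin_diag_eq (I := I) (J := J) d d⁻¹ _ ▸ mem_inf.2 ⟨h7, (mem_inf.1 h5).2⟩, ?_⟩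
  rw [Fintype.prod_sum_type]
  simp only [Sum.elim_inl, Sum.elim_inr, Pi.one_apply, Finset.prod_const, Finset.card_univ,
    ZMod.card, one_pow, mul_one]
  exact Units.ext (by rw [Units.val_pow_eq_pow_val, ZMod.pow_card])

omit [Fintype I] [DecidableEq I] [Fintype J] [DecidableEq J] in
theorem exists_equiv_fin {n : ℕ} (hn : 6 ≤ n) (hnp : p ^ 2 ≤ n) :
    3 ≤ Fintype.card (ZMod p ⊕ Fin (n / p - p)) ∧
      Nonempty (Pt p (ZMod p ⊕ Fin (n / p - p)) (Fin (n % p)) ≃ Fin n) := by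
  have h1 : p ≤ n / p := (Nat.le_div_iff_mul_le hp.out.pos).2 (by rwa [← sq])
  have h2 : Fintype.card (ZMod p ⊕ Fin (n / p - p)) = n / p := by
    rw [Fintype.card_sum, ZMod.card, Fintype.card_fin]; omega
  refine ⟨?_, nonempty_equiv_Pt (by rw [h2, Fintype.card_fin, Fintype.card_fin, Nat.div_add_mod])⟩
  rw [h2]
  by_cases hp2 : p = 2
  · subst hp2; omega
  · have := hp.out.two_le
    omega

omit [Fintype I] [DecidableEq I] [Fintype J] [DecidableEq J] in
theorem isSimple_alt {n : ℕ} (hn : 6 ≤ n) (hnp : p ^ 2 ≤ n) (hb : n % p ≤ 1)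
    (S : Sylow p (alternatingGroup (Fin n))) :
    (groupFusionSystem (S : Subgroup (alternatingGroup (Fin n)))).IsSimple p := by
  obtain ⟨hI, ⟨e⟩⟩ := exists_equiv_fin hn hnp
  haveI : Subsingleton (Fin (n % p)) := Fin.subsingleton_iff_le_one.2 hb
  exact isSimple_of_mulEquiv e.altCongrHom (isSimple_alt_Pt hI) S

omit [Fintype I] [DecidableEq I] [Fintype J] [DecidableEq J] in
theorem not_comm_sylow_alt {n : ℕ} (hn : 6 ≤ n) (hnp : p ^ 2 ≤ n)
    (S : Sylow p (alternatingGroup (Fin n))) : ¬ IsMulCommutative S := by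
  intro hS
  obtain ⟨hI, ⟨e⟩⟩ := exists_equiv_fin hn hnp
  obtain ⟨P, hP, hcyc⟩ := exists_sylow_cyc (p := p) (I := Fin (n / p - p))
  have hJ : Fintype.card (Fin (n % p)) < p := by
    rw [Fintype.card_fin]; exact Nat.mod_lt _ hp.out.pos
  have h1 := (isSylowIn_subgroupOf_top_iff inf_le_right).2 (isSylowIn_Sw_alt hJ hP)
  have h2 := (h1.isPGroup.map e.altCongrHom.toMonoidHom)
  obtain ⟨g, -, hg⟩ := (isSylowIn_top S).exists_conj_mem h2 le_top
  obtain ⟨l, hl1, hl2⟩ := exists_ne_ne hI (Sum.inl 0) (Sum.inl 1)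
  have hx : wr (Fin (n % p)) 1 1 (pr p (Sum.inl 0) l) ∈ alternatingGroup _ :=
    Perm.mem_alternatingGroup.2 (sign_tr_pair _ l)
  have hy : topH p (Fin (n % p)) (cyc (Fin (n / p - p)) (1 : ZMod p)) ∈ alternatingGroup _ :=
    Perm.mem_alternatingGroup.2 (sign_top_of_pow (k := 1) (by rw [pow_one, cyc_pow_p]))
  have hx' := hg _ (mem_map_of_mem _ (x := ⟨_, hx⟩) ⟨tr_mem_Sw P _, hx⟩)
  have hy' := hg _ (mem_map_of_mem _ (x := ⟨_, hy⟩) ⟨wr_mem_Sw (hcyc 1) 0, hy⟩)
  have h3 := congrArg Subtype.val (hS.is_comm.comm ⟨_, hx'⟩ ⟨_, hy'⟩)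
  have h4 : ∀ a b : alternatingGroup (Fin n), g * a * g⁻¹ * (g * b * g⁻¹) = g * (a * b) * g⁻¹ :=
    fun a b => by group
  simp only [Subgroup.coe_mul] at h3
  rw [h4, h4, mul_left_inj, mul_right_inj, ← map_mul, ← map_mul] at h3
  have h5 := congrArg Subtype.val (e.altCongrHom.injective h3)
  simp only [Subgroup.coe_mul, topH_apply, wr_mul', wr_eq_iff] at h5
  have h6 := congrFun h5.2.2 (Sum.inl 0)
  rw [cyc_inl, zero_add, pr_apply_of_ne (by simp) hl2.symm, pr_apply_left hl1.symm] at h6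
  simp at h6

omit [Fintype I] [DecidableEq I] [Fintype J] [DecidableEq J] in
theorem comm_of_card_lt {Ω : Type*} [Fintype Ω] {G : Type*} [Group G] [Finite G] [MulAction G Ω]
    [FaithfulSMul G Ω] (hG : IsPGroup p G) (h : Fintype.card Ω < p ^ 2) (a b : G) :
    a * b = b * a := by
  classical
  rw [← commutatorElement_eq_one_iff_mul_comm]
  refine FaithfulSMul.eq_of_smul_eq_smul (α := Ω) fun x => ?_
  rw [one_smul]
  obtain ⟨k, hk⟩ := hG.index (MulAction.stabilizer G x)
  have h1 : (MulAction.stabilizer G x).index ≤ Fintype.card Ω := by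
    rw [MulAction.index_stabilizer, ← Nat.card_eq_fintype_card]
    exact Set.ncard_le_card _
  have hk1 : k ≤ 1 := by
    have : p ^ k < p ^ 2 := by omega
    have := (Nat.pow_lt_pow_iff_right hp.out.one_lt).1 this
    omega
  rw [← MulAction.mem_stabilizer_iff]
  rcases Nat.le_one_iff_eq_zero_or_eq_one.1 hk1 with rfl | rfl
  · rw [pow_zero, index_eq_one] at hk
    rw [hk]; trivial
  rw [pow_one] at hk
  obtain ⟨m, hm⟩ := IsPGroup.iff_card.1 hG
  have hm0 : m ≠ 0 := by
    rintro rfl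
    have := (MulAction.stabilizer G x).index_dvd_card
    rw [hk, hm, pow_zero, Nat.dvd_one] at this
    exact hp.out.one_lt.ne' this
  haveI : (MulAction.stabilizer G x).Normal := normal_of_index_eq_minFac_card (by
    rw [hk, hm, Nat.Prime.pow_minFac hp.out hm0])
  haveI : IsCyclic (G ⧸ MulAction.stabilizer G x) := isCyclic_of_prime_card hk
  rw [← QuotientGroup.eq_one_iff, commutatorElement_def]
  have := (IsCyclic.isMulCommutative (α := G ⧸ MulAction.stabilizer G x)).is_comm.comm (a : _) b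
  simp only [QuotientGroup.mk_mul, QuotientGroup.mk_inv]
  rw [this]; group

omit [Fintype I] [DecidableEq I] [Fintype J] [DecidableEq J] in
theorem comm_sylow_alt_iff {n : ℕ} (hn : 6 ≤ n) (S : Sylow p (alternatingGroup (Fin n))) :
    IsMulCommutative S ↔ n < p ^ 2 := by
  refine ⟨fun h => not_le.1 fun h' => not_comm_sylow_alt hn h' S h, fun h => ⟨⟨?_⟩⟩⟩
  exact comm_of_card_lt (Ω := Fin n) S.isPGroup' (by rwa [Fintype.card_fin])

end Cfsg.Agent.H3.Alt
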