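import Cfsg.Agent.H3.Orth
import Cfsg.Agent.H4.TI
import Cfsg.Prelude.Def_Solvable

/-!
# The theorems of Frobenius and Wielandt on normal complements
-/

set_option autoImplicit false

namespace Cfsg.Agent.H3

open Cfsg Cfsg.Agent.H4
open scoped ComplexConjugate Pointwise

variable {G : Type*} [Group G]

theorem indFun_res_of_vanish [Fintype G] (H M : Subgroup G)
    (h : ∀ g ∉ H, ∀ t ∈ H, g * t * g⁻¹ ∈ H → g * t * g⁻¹ ∈ M) {ψ : H → ℂ}
    (hψ : IsClassFunction H ψ) (hM : ∀ x : H, (x : G) ∈ M → ψ x = 0) (t : H) :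
    indFun H ψ t = ψ t :=
  indFun_eq_of_conj_mem H hψ t fun x hx hne => by
    by_contra hxH
    exact hne (hM _ (h x hxH t t.2 hx))

/-- Extension of irreducible characters in the Frobenius–Wielandt situation. -/
theorem exists_irr_extension_of_wielandt [Finite G] (H M : Subgroup G)
    (h : ∀ g ∉ H, ∀ t ∈ H, g * t * g⁻¹ ∈ H → g * t * g⁻¹ ∈ M) {θ : H → ℂ}
    (hθ : IsIrrCharacter H θ) (hM : ∀ x : H, (x : G) ∈ M → θ x = θ 1) :
    ∃ χ : G → ℂ, IsIrrCharacter G χ ∧ (∀ t : H, χ t = θ t) ∧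
      ∀ x : G, (∀ g, g * x * g⁻¹ ∈ H → g * x * g⁻¹ ∈ M) → χ x = χ 1 := by
  classical
  have := Fintype.ofFinite G
  obtain ⟨n, hn, hn'⟩ := hθ.exists_apply_one
  set ψ : H → ℂ := θ - (n : ℂ) • 1 with hψ
  have hψg : IsGeneralizedCharacter H ψ :=
    hθ.isGeneralizedCharacter.sub (isCharacter_one.natCast_smul n).isGeneralizedCharacter
  have hψM : ∀ x : H, (x : G) ∈ M → ψ x = 0 := fun x hx => by simp [hψ, hM x hx, hn']
  have hres := indFun_res_of_vanish H M h hψg.isClassFunction hψM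
  set χ : G → ℂ := indFun H ψ + (n : ℂ) • 1 with hχ
  have hχg : IsGeneralizedCharacter G χ :=
    (isGeneralizedCharacter_indFun H hψg).add
      (isCharacter_one.natCast_smul n).isGeneralizedCharacter
  have hχres : ∀ t : H, χ t = θ t := fun t => by
    rw [hχ, Pi.add_apply, hres t, hψ]; simp
  have hχ1 : χ 1 = n := (hχres 1).trans hn'
  have hfun : (fun t : H => χ t) = θ := funext hχres
  have hone : (fun _ : H => (1 : G → ℂ) 1) = 1 := rfl
  refine ⟨χ, hχg.isIrrCharacter ?_ (by simp [hχ1]), hχres, fun x hx => ?_⟩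
  · have e1 : classInner χ χ = classInner ψ θ + n * classInner 1 χ := by
      conv_lhs => rw [hχ]
      rw [classInner_add_left, ← hχ, frobenius_recip H ψ hχg.isClassFunction, hfun,
        classInner_smul_left]
    have e2 : classInner 1 χ = classInner 1 ψ + n := by
      rw [hχ, classInner_add_right, frobenius_recip' H ψ isClassFunction_one,
        classInner_smul_right, classInner_one_one]
      simp only [map_natCast, mul_one]
      rfl
    rw [e1, e2, hψ, classInner_sub_left, classInner_sub_right, classInner_smul_left,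
      classInner_smul_right, classInner_one_one, hθ.classInner_self]
    simp only [map_natCast]
    ring
  · have : indFun H ψ x = 0 := by
      rw [indFun_apply']
      refine mul_eq_zero_of_right _ (Finset.sum_eq_zero fun g _ => ?_)
      by_cases hg : g * x * g⁻¹ ∈ H
      · rw [ebz_of_mem H _ hg]; exact hψM _ (hx g hg)
      · exact ebz_of_not_mem H _ hg
    rw [hχ1]; simp [hχ, this]

/-- Wielandt's generalization of Frobenius' theorem. -/
theorem wielandt_normal_complement [Finite G] (H M : Subgroup G) (hMH : M ≤ H)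
    [hn : (M.subgroupOf H).Normal]
    (h : ∀ g ∉ H, ∀ t ∈ H, g * t * g⁻¹ ∈ H → g * t * g⁻¹ ∈ M) :
    ∃ N : Subgroup G, N.Normal ∧ (∀ x, x ∈ N ↔ ∀ g, g * x * g⁻¹ ∈ H → g * x * g⁻¹ ∈ M) ∧
      N ⊓ H = M ∧ Nat.card N * Nat.card H = Nat.card G * Nat.card M := by
  classical
  have := Fintype.ofFinite G
  choose χ hχ1 hχ2 hχ3 using fun (θ : {θ : H → ℂ // IsIrrCharacter H θ ∧
    ∀ x : H, (x : G) ∈ M → θ x = θ 1}) => exists_irr_extension_of_wielandt H M h θ.2.1 θ.2.2
  have hconjM : ∀ x ∈ M, ∀ g, g * x * g⁻¹ ∈ H → g * x * g⁻¹ ∈ M := by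
    intro x hx g hg
    by_cases hgH : g ∈ H
    · exact hn.conj_mem ⟨x, hMH hx⟩ hx ⟨g, hgH⟩
    · exact h g hgH x (hMH hx) hg
  have hmem : ∀ x, x ∈ ⨅ θ, charKer (χ θ) ↔ ∀ g, g * x * g⁻¹ ∈ H → g * x * g⁻¹ ∈ M := by
    intro x
    rw [Subgroup.mem_iInf]
    constructor
    · intro hx g hg
      refine mem_of_forall_irr (M.subgroupOf H) (g := ⟨_, hg⟩) fun θ hθ hθM => ?_
      have h1 := (hχ1 ⟨θ, hθ, hθM⟩).isCharacter.mem_charKer.mp (hx ⟨θ, hθ, hθM⟩)
      rw [← (hχ1 ⟨θ, hθ, hθM⟩).isClassFunction x g] at h1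
      exact (hχ2 ⟨θ, hθ, hθM⟩ ⟨_, hg⟩).symm.trans (h1.trans (hχ2 ⟨θ, hθ, hθM⟩ 1))
    · intro hx θ
      exact (hχ1 θ).isCharacter.mem_charKer.mpr (hχ3 θ x hx)
  set N := ⨅ θ, charKer (χ θ) with hN
  refine ⟨N, Subgroup.normal_iInf_normal fun θ => (hχ1 θ).isCharacter.normal_charKer, hmem, ?_, ?_⟩
  · ext x
    rw [Subgroup.mem_inf, hmem]
    exact ⟨fun hx => by simpa using hx.1 1 (by simpa using hx.2),
      fun hx => ⟨hconjM x hx, hMH hx⟩⟩
  · let ψ : H → ℂ := fun t => if (t : G) ∈ M then 0 else 1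
    have hψc : IsClassFunction H ψ := fun t s => by
      have : ((s * t * s⁻¹ : H) : G) ∈ M ↔ (t : G) ∈ M :=
        ⟨fun h1 => by
          simpa [mul_assoc, Subgroup.mem_subgroupOf] using hn.conj_mem (s * t * s⁻¹) h1 s⁻¹,
          fun h1 => hn.conj_mem t h1 s⟩
      simp only [ψ, this]
    have hψM : ∀ x : H, (x : G) ∈ M → ψ x = 0 := fun x hx => by simp [ψ, hx]
    have hres := indFun_res_of_vanish H M h hψc hψM
    have hind : ∀ x, indFun H ψ x = if x ∈ N then 0 else 1 := by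
      intro x
      split_ifs with hx
      · rw [indFun_apply']
        refine mul_eq_zero_of_right _ (Finset.sum_eq_zero fun g _ => ?_)
        by_cases hg : g * x * g⁻¹ ∈ H
        · rw [ebz_of_mem H _ hg]; exact hψM _ ((hmem x).mp hx g hg)
        · exact ebz_of_not_mem H _ hg
      · rw [hmem] at hx
        push Not at hx
        obtain ⟨g, h1, h2⟩ := hx
        rw [← isClassFunction_indFun H ψ x g]
        exact (hres ⟨_, h1⟩).trans (by simp [ψ, h2])
    have h1 := sum_indFun_mul H ψ (isClassFunction_one (G := G))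
    simp only [hind, ψ, Pi.one_apply, mul_one] at h1
    have key : ∀ {K : Type _} [Group K] [Fintype K] (A : Subgroup K) [DecidablePred (· ∈ A)],
        ∑ x : K, (if x ∈ A then (0 : ℂ) else 1) = Nat.card K - Nat.card A := by
      intro K _ _ A _
      have : ∀ x : K, (if x ∈ A then (0 : ℂ) else 1) = 1 - if x ∈ A then 1 else 0 := by
        intro x; split_ifs <;> simp
      simp only [this, Finset.sum_sub_distrib, Finset.sum_boole, Nat.card_eq_fintype_card,
        Fintype.card_subtype]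
      simp
    have h2 := key (M.subgroupOf H)
    rw [Nat.card_congr (Subgroup.subgroupOfEquivOfLe hMH).toEquiv] at h2
    simp only [Subgroup.mem_subgroupOf] at h2
    rw [key N, h2] at h1
    have h3 : (Nat.card H : ℂ) * H.index = Nat.card G := by exact_mod_cast H.card_mul_index
    have h4 : (Nat.card N : ℂ) * Nat.card H = Nat.card G * Nat.card M := by
      linear_combination (-(Nat.card H : ℂ)) * h1 + ((Nat.card M : ℂ) - Nat.card H) * h3
    exact_mod_cast h4

/-- Frobenius' theorem, element form. -/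
theorem frobenius_normal_complement [Finite G] (H : Subgroup G)
    (h : ∀ g ∉ H, ∀ t ∈ H, g * t * g⁻¹ ∈ H → t = 1) :
    ∃ N : Subgroup G, N.Normal ∧ (∀ x, x ∈ N ↔ x = 1 ∨ ∀ g, g * x * g⁻¹ ∉ H) ∧
      Subgroup.IsComplement' N H := by
  have : ((⊥ : Subgroup G).subgroupOf H).Normal := by rw [Subgroup.bot_subgroupOf]; infer_instance
  obtain ⟨N, h1, h2, h3, h4⟩ := wielandt_normal_complement H ⊥ bot_le fun g hg t ht hgt => by
    simp [h g hg t ht hgt]
  refine ⟨N, h1, fun x => ?_, Subgroup.isComplement'_of_card_mul_and_disjoint (by simpa using h4)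
    (disjoint_iff.mpr h3)⟩
  rw [h2]
  by_cases hx : x = 1
  · simp [hx]
  · simp [hx]

/-- Frobenius' theorem. -/
theorem frobenius_kernel_theorem [Finite G] (H : Subgroup G) (hH : IsFrobeniusComplement H) :
    ∃ N : Subgroup G, (N : Set G) = frobeniusKernel H ∧ N.Normal ∧
      Subgroup.IsComplement' N H := by
  obtain ⟨N, h1, h2, h3⟩ := frobenius_normal_complement H fun g hg t ht hgt => by
    have : g * t * g⁻¹ ∈ H ⊓ MulAut.conj g • H :=
      ⟨hgt, Subgroup.smul_mem_pointwise_smul t (MulAut.conj g) H ht⟩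
    rw [hH.2.2 g hg, Subgroup.mem_bot] at this
    simpa using this
  refine ⟨N, ?_, h1, h3⟩
  ext x
  rw [SetLike.mem_coe, h2]
  refine or_congr Iff.rfl ⟨fun h g hg => ?_, fun h g hg => h g⁻¹ ?_⟩
  · rw [Subgroup.mem_pointwise_smul_iff_inv_smul_mem] at hg
    exact h g⁻¹ (by simpa using hg)
  · rw [Subgroup.mem_pointwise_smul_iff_inv_smul_mem]
    simpa using hg

end Cfsg.Agent.H3
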